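import Cfsg.Agent.H35.OnT.ONV2.RChk0

set_option autoImplicit false
set_option linter.all false

namespace Cfsg.Agent.H35

open Cfsg.Spor

theorem onv2_rall : ∀ p, p < 21 → onv2_rf p = true := by
  apply allR_blocks onv2_rf 21 5 1 _ (by decide)
  intro k hk
  interval_cases k
  · exact onv2_rchk_0

theorem onv2_circ_ok : circChk (fullW onv2_rws onv2_prels) onv2_circT 0 onv2_ccert = true := by decide +kernel
theorem onv2_hc_ok : allR (fun c => hcChk onv2_rsw onv2_hc1T onv2_hc2T c) 4 2 0 = true := by decide +kernel
theorem onv2_h0 : RData.aord (onv2_rd.ent 0 1) = 0 := by decide +kernel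

end Cfsg.Agent.H35
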