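import Cfsg.Agent.H35.OnT.ONV2.RTab0

set_option autoImplicit false
set_option linter.all false

namespace Cfsg.Agent.H35

open Cfsg.Spor

noncomputable def onv2_rrowT : ℕ → ℕ := onv2_rrowT_c0

noncomputable def onv2_circT_c0 : ℕ → List ON.Gen := (nd 11 (nd 5 (nd 2 (nd 1 (lf [.g]) (lf [.e])) (nd 3 (lf [.d, .b, .d, .b]) (nd 4 (lf [.f, .b, .f, .b]) (lf [.b, .a, .b, .a, .b, .a])))) (nd 8 (nd 6 (lf [.d, .a, .d, .a]) (nd 7 (lf [.f, .a, .f, .a]) (lf [.b, .c, .b, .c, .b, .c]))) (nd 9 (lf [.f, .c, .f, .c]) (nd 10 (lf [.a, .c, .a, .c]) (lf [.a, .a]))))) (nd 16 (nd 13 (nd 12 (lf [.b, .d, .b, .d]) (lf [.f, .d, .f, .d])) (nd 14 (lf [.a, .b, .a, .b, .a, .b]) (nd 15 (lf [.c, .b, .c, .b, .c, .b]) (lf [.a, .d, .a, .d])))) (nd 19 (nd 17 (lf [.b, .b]) (nd 18 (lf [.d, .c, .d, .c, .d, .c, .a, .f, .d, .c]) (lf [.d, .d]))) (nd 20 (lf [.c, .a, .c, .a]) (nd 21 (lf [.c, .c]) (lf [.c, .d, .c, .d, .c, .d, .c,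 .a, .f, .d]))))))
noncomputable def onv2_circT : ℕ → List ON.Gen := onv2_circT_c0
def onv2_ccert : List (ℕ × ℕ × Bool) := [(26, 0, false), (27, 0, false), (8, 1, false), (9, 1, false), (1, 1, false), (3, 1, false), (4, 1, false), (7, 0, false), (14, 1, false), (2, 0, false), (0, 0, false), (8, 0, false), (19, 1, false), (1, 0, false), (7, 1, false), (3, 0, false), (6, 0, false), (25, 4, false), (18, 0, false), (2, 1, false), (12, 0, false), (25, 3, false)]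
noncomputable def onv2_hc1T_c0 : ℕ → List ON.Gen := (nd 2 (nd 1 (lf [.a]) (lf [.c])) (nd 3 (lf [.d]) (lf [.f])))
noncomputable def onv2_hc1T : ℕ → List ON.Gen := onv2_hc1T_c0
noncomputable def onv2_hc2T_c0 : ℕ → List ON.Gen := (nd 2 (nd 1 (lf []) (lf [])) (nd 3 (lf []) (lf [])))
noncomputable def onv2_hc2T : ℕ → List ON.Gen := onv2_hc2T_c0

noncomputable def onv2_rd : RData ON.Gen := ⟨wrapRow 21 onv2_rrowT, 21, 21, on7_gi, on7_gof, on7_gens, circTab 22 onv2_circT, circTab 4 onv2_hc1T, circTab 4 onv2_hc2T, 1⟩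
noncomputable def onv2_rf (p : ℕ) : Bool := onv2_rd.chk p
def onv2_rsw : List (List ON.Gen) := [[.a], [.c], [.d], [.f]]

end Cfsg.Agent.H35
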