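import Cfsg.Agent.H35.OnT.Pres

set_option autoImplicit false
set_option linter.all false

namespace Cfsg.Agent.H35

noncomputable def onv2_rrowT_c0 : ℕ → ℕ := (nd 10 (nd 5 (nd 2 (nd 1 (lf (nat_lit 0x1d00008e000000000b000092000000001500008f000000000d000090000000000100008b00010000050000910000000003000093000000000000000000000000000000000000)) (lf (nat_lit 0x1b000088000100000b00008c0001000013000089000100000100007e000300000200008a0000000001000085000200000300008d000100000102000000000000000000000000))) (nd 3 (lf (nat_lit 0x33000081000200000b000086000200002b0000820002000001000078000400002300008300020000020000840001000003000087000200000201000100000000000000000000)) (nd 4 (lf (nat_lit 0x4300007b000300000b00007f0003000001000071000500000200007d000100003b00007c00030000530000750004000003000080000300000303000100000000000000000000)) (lf (nat_lit 0x43000074000400000b00007900040000010000640007000002000077000200000100006b000600004b000076000300000300007a000400000403000200000000000000000000))))) (nd 7 (nd 6 (lf (nat_lit 0x6300006e000500000b0000720005000002000070000300000100005d000800005b00006f00050000530000610007000003000073000500000504000300000000000000000000)) (lf (nat_lit 0x1b000067000600000b00006c00060000010000580009000073000068000600000200006a000400006b000069000600000300006d000600000602000400000000000000000000))) (nd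 8 (lf (nat_lit 0x63000060000700000b00006500070000020000630004000001000050000a000083000054000900007b0000620005000003000066000700000704000400000000000000000000)) (nd 9 (lf (nat_lit 0x4300005b000800000b00005e000800009300004a000a00000200005c0005000001000047000b00005300004d000a00000300005f000800000803000500000000000000000000)) (lf (nat_lit 0x63000053000900000b00005900090000020000570006000001000041000c00005b000055000700007b000056000900000300005a000900000904000600000000000000000000)))))) (nd 15 (nd 12 (nd 11 (lf (nat_lit 0x4300004c000a00000b000051000a00008b00004b000800000200004f000700000100003b000d00004b00004e0008000003000052000a00000a03000700000000000000000000)) (lf (nat_lit 0x1b000044000b00000b000048000b000093000038000d000073000045000b0000020000460008000001000034000e000003000049000b00000b02000800000000000000000000))) (nd 13 (lf (nat_lit 0x4300003e000c00000b000042000c0000010000270010000002000040000900000100002e000f00004b00003f000c000003000043000c00000c03000900000000000000000000)) (nd 14 (lf (nat_lit 0x1b000037000d00000b00003c000d000013000039000b0000a300002b000f00000200003a000a000001000020001100000300003d000d00000d02000a00000000000000000000)) (lf (nat_lit 0x33000031000e00000b000035000e00009300001b001100009b000032000e00008300001d0011000002000033000b000003000036000e00000e01000b00000000000000000000))))) (nd 18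 (nd 16 (lf (nat_lit 0x1b00002a000f00000b00002f000f00000100000f001300007300002c000d00000200002d000c0000010000170012000003000030000f00000f02000c00000000000000000000)) (nd 17 (lf (nat_lit 0x63000024001000000b0000280010000002000026000c0000ab000023001000008300000c001300007b0000250010000003000029001000001004000c00000000000000000000)) (lf (nat_lit 0x3300001a001100000b000021001100002b00001c000e0000a3000013001200002300001e000e00000200001f000d000003000022001100001101000d00000000000000000000)))) (nd 19 (lf (nat_lit 0x33000012001200000b0000180012000001000008001400009b00001400110000230000150012000002000016000f000003000019001200001201000f00000000000000000000)) (nd 20 (lf (nat_lit 0x6300000b001300000b000010001300000200000e000f0000a3000001001400005b00000d00100000530000050014000003000011001300001304000f00000000000000000000)) (lf (nat_lit 0x63000003001400000b000009001400000200000700120000ab000002001300005b000004001400007b000006001300000300000a001400001404001200000000000000000000)))))))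

end Cfsg.Agent.H35
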